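import Cfsg.Agent.Spor.EqJ3
import Cfsg.Agent.Small.U34T
import Cfsg.Agent.AutCl.PSLMain
import Cfsg.Agent.Classical.SL2Unip
import Cfsg.Agent.Classical.SLCard

/-! `J₃` contains `SL₂(16) : 2` (`l216`, helper16). -/

set_option autoImplicit false
set_option maxRecDepth 100000

namespace Cfsg.Agent.HJ

open Cfsg.Agent.Spor Cfsg.Agent.Small.U34T Cfsg.Agent.Classical
open scoped MatrixGroups

namespace L216

theorem up (G : Type) [Group G] (g : ℕ → G) (hg : ∀ r ∈ JJ3m1.rels, ev g r = 1) :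
    CardLe (genW g [[0], [1], [2]]) 8160 :=
  have u0 : CardLe (genW g [[0], [1]]) 6 :=
    (cardLe_genW_nil g).job (JJ3m0.relIndex_le (renG_255 g (by decide)) (renG_rels (rels_of_sub hg (by decide +kernel))))
      (by decide +kernel) rfl (by decide)
  (u0).job (JJ3m1.relIndex_le (renG_255 g (by decide)) (renG_rels (rels_of_sub hg (by decide +kernel))))
    (by decide +kernel) rfl (by decide)

/-- The field automorphism of order two. -/
def fr : F16 ≃+* F16 where
  toFun x := x * x * (x * x)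
  invFun x := x * x * (x * x)
  left_inv := by decide +kernel
  right_inv := by decide +kernel
  map_mul' := by decide +kernel
  map_add' := by decide +kernel

/-- The semilinear group. -/
abbrev B : Type := SL(2, F16) ⋊[AutCl.slField] (F16 ≃+* F16)

/-- Codes. -/
structure T where
  a : F16
  b : F16
  c : F16
  d : F16
  s : Bool
  deriving DecidableEq

/-- Twist. -/
def tw (s : Bool) (x : F16) : F16 := cond s (x * x * (x * x)) x

instance instMonoidT : Mul T := ⟨fun x y => ⟨x.a * tw x.s y.a + x.b * tw x.s y.c, x.a * tw x.s y.b + x.b * tw x.s y.d,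
  x.c * tw x.s y.a + x.d * tw x.s y.c, x.c * tw x.s y.b + x.d * tw x.s y.d, xor x.s y.s⟩⟩

/-- Representation. -/
def R (x : T) (g : B) : Prop := g.left.1 = !![x.a, x.b; x.c, x.d] ∧ g.right = cond x.s fr 1

theorem R.mul {x y : T} {g h : B} (p : R x g) (q : R y h) : R (x * y) (g * h) := by
  obtain ⟨a, b, c, d, s⟩ := x
  obtain ⟨a', b', c', d', s'⟩ := y
  refine ⟨?_, ?_⟩
  · rw [SemidirectProduct.mul_left, Matrix.SpecialLinearGroup.coe_mul, AutCl.slField_coe, p.1, p.2, q.1]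
    refine Matrix.ext fun i j => ?_
    cases s <;> fin_cases i <;> fin_cases j <;> simp [Matrix.mul_apply, Fin.sum_univ_two] <;> rfl
  · rw [SemidirectProduct.mul_right, p.2, q.2]
    cases s <;> cases s' <;> first | rfl | exact RingEquiv.ext fr.left_inv

theorem R.unique {x : T} {g h : B} (p : R x g) (q : R x h) : g = h :=
  SemidirectProduct.ext (Subtype.ext (p.1.trans q.1.symm)) (p.2.trans q.2.symm)

/-- The letters. -/
noncomputable def b : ℕ → B
  | 0 => ⟨uSL 1, 1⟩
  | 1 => ⟨⟨!![0, 1; 1, 0], by decide +kernel⟩, 1⟩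
  | 2 => ⟨⟨!![F16.dec 8, F16.dec 7; 0, F16.dec 15], by decide +kernel⟩, fr⟩
  | _ => 1

/-- Their codes. -/
def c : ℕ → T
  | 0 => ⟨1, 1, 0, 1, false⟩
  | 1 => ⟨0, 1, 1, 0, false⟩
  | 2 => ⟨F16.dec 8, F16.dec 7, 0, F16.dec 15, true⟩
  | _ => ⟨1, 0, 0, 1, false⟩

theorem R_one : R ⟨1, 0, 0, 1, false⟩ 1 := ⟨Matrix.one_fin_two, rfl⟩

theorem R_b : ∀ n, R (c n) (b n)
  | 0 => ⟨rfl, rfl⟩
  | 1 => ⟨rfl, rfl⟩
  | 2 => ⟨rfl, rfl⟩
  | _ + 3 => R_one

/-- Evaluation of words. -/
def evT : List ℕ → T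
  | [] => ⟨1, 0, 0, 1, false⟩
  | x :: w => evT w * c x

theorem R_ev : ∀ w, R (evT w) (ev b w)
  | [] => R_one
  | x :: w => (R_ev w).mul (R_b x)

theorem hb : ∀ r ∈ JJ3m1.rels, ev b r = 1 := fun r hr =>
  R.unique ((by decide +kernel : ∀ r ∈ JJ3m1.rels, evT r = T.mk 1 0 0 1 false) r hr ▸ R_ev r) R_one

theorem le : (SemidirectProduct.inl : SL(2, F16) →* B).range ≤ genL b (List.range 3) := by
  have m : ∀ w : List ℕ, ev b w ∈ genL b (List.range 3) := fun w => by
    induction w with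
    | nil => exact one_mem _
    | cons x w ih =>
      refine mul_mem ih ?_
      match x with
      | 0 | 1 | 2 => exact mem_genL b (by decide)
      | _ + 3 => exact one_mem _
  have u : ∀ t : F16, SemidirectProduct.inl (uSL t) ∈ genL b (List.range 3) := fun t => by
    obtain ⟨w, hw⟩ : ∃ w, evT w = ⟨1, t, 0, 1, false⟩ := ⟨cond t.a [0] [] ++ cond t.b [2, 1, 0, 2, 1, 2, 0, 1, 0, 2, 0] [] ++
      cond t.c [2, 0, 2, 1, 0, 2, 0, 1, 2, 0, 2, 1, 0, 2, 0, 1] [] ++ cond t.d [1, 0, 2, 0, 1, 2, 0, 2, 1, 0, 2, 0, 1] [],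
      by revert t; decide +kernel⟩
    exact (hw ▸ R_ev w).unique (h := SemidirectProduct.inl (uSL t)) ⟨rfl, rfl⟩ ▸ m w
  rw [MonoidHom.range_eq_map, Subgroup.map_le_iff_le_comap]
  refine (sl_eq_top_of_uSL_lSL (H := Subgroup.comap _ _) u fun t => ?_).ge
  have := ((R_b 1).mul (x := c 1) (y := ⟨1, t, 0, 1, false⟩) (h := SemidirectProduct.inl (uSL t)) ⟨rfl, rfl⟩).mul (R_b 1)
  rw [(by decide +kernel : ∀ t, c 1 * T.mk 1 t 0 1 false * c 1 = T.mk 1 0 t 1 false) t] at this
  exact Subgroup.mem_comap.2 (this.unique (h := SemidirectProduct.inl (lSL t)) ⟨rfl, rfl⟩ ▸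
    mul_mem (mul_mem (mem_genL b (by decide)) (u t)) (mem_genL b (by decide)))

theorem main : ∃ N : Subgroup MdJ3.H, N.Normal ∧ N.index = 2 ∧ Nonempty (N ≃* SL(2, F16)) := by
  obtain ⟨ρ, -, h2⟩ := exists_hom_of_up (sG_top MdJ3.g JJ3m2.subs) MdJ3.cardH (h := b) (by
    rw [← genW_sing]; exact up _ _ (prG_rels (sG_rels (rels_of_sub MdJ3.hg (by decide +kernel))) hb))
  have : Finite MdJ3.H := Nat.finite_of_card_ne_zero (by rw [MdJ3.cardH]; decide)
  have : Finite ρ.range := Finite.of_surjective _ ρ.rangeRestrict_surjective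
  have l : (SemidirectProduct.inl : SL(2, F16) →* B).range ≤ ρ.range := h2 ▸ le
  have c1 : Nat.card (SemidirectProduct.inl : SL(2, F16) →* B).range = 4080 := by
    rw [← Nat.card_congr (MonoidHom.ofInjective SemidirectProduct.inl_injective).toEquiv, card_SL2,
      Nat.card_eq_fintype_card, F16.card]
  have c2 := Subgroup.card_eq_card_quotient_mul_card_subgroup ρ.ker
  rw [Nat.card_congr (QuotientGroup.quotientKerEquivRange ρ).toEquiv, MdJ3.cardH] at c2
  obtain ⟨k, hk⟩ := Subgroup.card_dvd_of_le l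
  have k1 : k ≠ 1 := fun e => by
    have := Subgroup.eq_of_le_of_card_ge l (by rw [hk, e, mul_one])
    have a : b 2 ∈ (SemidirectProduct.inl : SL(2, F16) →* B).range := this ▸ h2 ▸ mem_genL b (by decide)
    rw [SemidirectProduct.range_inl_eq_ker_rightHom] at a
    exact absurd (DFunLike.congr_fun (show fr = 1 from a) (F16.dec 2)) (by decide +kernel)
  have inj : Function.Injective ρ := by
    rw [← MonoidHom.ker_eq_bot_iff, ← Subgroup.card_eq_one]
    rw [hk, c1, mul_assoc] at c2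
    rcases (Nat.dvd_prime Nat.prime_two).1 (Dvd.intro _ (show k * Nat.card ρ.ker = 2 by omega)) with r | r
    · exact absurd r k1
    · subst r; omega
  have e := (Subgroup.equivMapOfInjective (SemidirectProduct.inl.range.comap ρ) ρ inj).trans
    ((MulEquiv.subgroupCongr (Subgroup.map_comap_eq_self l)).trans (MonoidHom.ofInjective SemidirectProduct.inl_injective).symm)
  have c3 := (SemidirectProduct.inl.range.comap ρ).card_mul_index
  rw [Nat.card_congr e.toEquiv, card_SL2, Nat.card_eq_fintype_card, F16.card, MdJ3.cardH] at c3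
  exact ⟨_, Subgroup.normal_of_index_eq_two (by omega), by omega, ⟨e⟩⟩

end L216

theorem l216 {G : Type*} [Group G] [Finite G] (h : Spor.IsoJ3 G) :
    ∃ (H : Subgroup G) (N : Subgroup H) (K : Type) (_ : Field K) (_ : Fintype K), N.Normal ∧ N.index = 2 ∧
      Fintype.card K = 16 ∧ Nonempty (N ≃* Matrix.SpecialLinearGroup (Fin 2) K) := by
  obtain ⟨F, _, _, w, hF, hw, ⟨e⟩⟩ := h
  obtain ⟨-, ⟨e'⟩⟩ := EqJ3.cover' hF hw
  obtain ⟨N, -, h2, ⟨f⟩⟩ := L216.main
  let a := (e'.trans e.symm).subgroupMap MdJ3.H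
  have i := (Subgroup.index_map_equiv N a).trans h2
  exact ⟨_, N.map a.toMonoidHom, F16, inferInstance, inferInstance, Subgroup.normal_of_index_eq_two i, i, F16.card,
    ⟨(a.subgroupMap N).symm.trans f⟩⟩

end Cfsg.Agent.HJ
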